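import Cfsg.Agent.H207.TriFix

/-!
# The fixed points of triality and field automorphisms are generated by root groups (helper164, S3509)

* `CS_eq_DS` : `CS S = DS S` for every set `S` of endomorphisms containing the identity;
* `equiv_CS` : `CS S ≃* G₂(kF S)`.
-/

set_option autoImplicit false

namespace Cfsg.Agent.H164.TD

open Cfsg.Lie Cfsg.Agent.ChevalleyStructure
open Cfsg.Agent.ChevalleyStructure.D4Comm
open Cfsg.Agent.ChevalleyStructure.D4NConj (nR hR)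
open Cfsg.Agent.ChevalleyStructure.D4RGD
open Cfsg.Agent.ChevalleyStructure.D4Cols
open Cfsg.Agent.ChevalleyStructure.GraphSymm
open Cfsg.Agent.ChevalleyStructure.D4TwN (xU_eq wU_nWord_eq)
open Cfsg.Agent.ChevalleyStructure.D4H1 (XY nw n_outer_eq h_outer_eq hel hel_eq wU_hWord)
open Cfsg.Agent.ChevalleyStructure.D4Fixed (sig fix coe_sig mem_fix)
open Cfsg.Agent.CpAutTri.Bru Cfsg.Agent.CpAutTri.Fam
open Cfsg.Agent.CpAutTri.Nor Cfsg.Agent.CpAutTri.Gen Cfsg.Agent.CpAutTri.Iota Cfsg.Agent.CpAutTri.Hom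
open Cfsg.Agent.H207.TriFix
open scoped Matrix

universe u

variable {K : Type u} [Field K] {S : Set (K →+* K)}

theorem XY_DS (w : List (Bool × K)) (hw : ∀ x ∈ w, x.2 ∈ kF S) : (w.map (XY (RingHom.id K))).prod ∈ DS S := by
  apply Subgroup.list_prod_mem
  intro x hx
  rw [List.mem_map] at hx
  obtain ⟨⟨_ | _, t⟩, ht, rfl⟩ := hx
  · have h1 := Y_mem (S := S) (hw _ ht)
    rw [Y_eq] at h1
    exact h1
  · have h1 := X_mem (S := S) (hw _ ht)
    rw [X_eq] at h1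
    exact h1

theorem neg_inv_mem {t : K} (ht : t ∈ kF S) : -t⁻¹ ∈ kF S := neg_mem (inv_mem ht)

theorem nw_kF {t : K} (ht : t ∈ kF S) : ∀ x ∈ nw t, x.2 ∈ kF S := by
  intro x hx
  simp only [nw, List.mem_cons, List.not_mem_nil, or_false] at hx
  rcases hx with rfl | rfl | rfl
  · exact ht
  · exact neg_inv_mem ht
  · exact ht

theorem n14_DS {t : K} (ht : t ∈ kF S) : wU (chevD4.nWord 14 t) ∈ DS S := by
  have e : wU (chevD4.nWord 14 t) = xU 14 t * (xU 9 (-t⁻¹) * (xU 14 t * 1)) := rfl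
  rw [e, xU_eq, xU_eq]
  exact mul_mem (x14_mem ht) (mul_mem (x9_mem (neg_inv_mem ht)) (mul_mem (x14_mem ht) (one_mem _)))

theorem h14_DS {t : K} (ht : t ∈ kF S) : wU (chevD4.hWord 14 t) ∈ DS S := by
  rw [wU_hWord]
  exact mul_mem (n14_DS ht) (n14_DS (neg_mem (one_mem _)))

theorem n_outer_DS {t : K} (ht : t ∈ kF S) :
    wU (chevD4.nWord 18 t) * wU (chevD4.nWord 13 t) * wU (chevD4.nWord 12 t) ∈ DS S := by
  have h := n_outer_eq (RingHom.id K) t
  rw [RingHom.id_apply, RingHom.id_apply] at h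
  rw [← h]
  exact XY_DS _ (nw_kF ht)

theorem h_outer_DS {t : K} (ht : t ∈ kF S) :
    wU (chevD4.hWord 18 t) * wU (chevD4.hWord 13 t) * wU (chevD4.hWord 12 t) ∈ DS S := by
  have h := h_outer_eq (RingHom.id K) t
  rw [RingHom.id_apply, RingHom.id_apply] at h
  rw [← h]
  refine XY_DS _ fun x hx => ?_
  rcases List.mem_append.1 hx with hx | hx
  · exact nw_kF ht _ hx
  · exact nw_kF (neg_mem (one_mem _)) _ hx

theorem nB_DS : D4Perm.nB K ∈ DS S := by
  have h := n14_DS (S := S) (one_mem _)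
  rw [wU_nWord_eq (by norm_num)] at h
  exact h

theorem nA_DS : D4Perm.nA K ∈ DS S := by
  have h := n_outer_DS (S := S) (one_mem _)
  rw [wU_nWord_eq (by norm_num), wU_nWord_eq (by norm_num), wU_nWord_eq (by norm_num)] at h
  exact h

theorem hel_DS {t s : Kˣ} (ht : (t : K) ∈ kF S) (hs : (s : K) ∈ kF S) : hel (RingHom.id K) t s ∈ DS S := by
  rw [hel_eq]
  exact mul_mem (h_outer_DS ht) (h14_DS hs)

theorem hel_kF (hid : RingHom.id K ∈ S) {t s : Kˣ} (hf : hel (RingHom.id K) t s ∈ FS S) :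
    (t : K) ∈ kF S ∧ (s : K) ∈ kF S := by
  obtain ⟨χ, hχ⟩ : ∃ χ, χ = D4Torus.hchar 18 t * D4Torus.hchar 13 (Units.map ((RingHom.id K : K →+* K) : K →* K) t) *
    D4Torus.hchar 12 (Units.map ((RingHom.id K : K →+* K) : K →* K) (Units.map ((RingHom.id K : K →+* K) : K →* K) t)) *
    D4Torus.hchar 14 s := ⟨_, rfl⟩
  have e : hel (RingHom.id K) t s = D4Torus.tor χ := by rw [hχ]; rfl
  have e1 : Units.map ((RingHom.id K : K →+* K) : K →* K) t = t := by
    ext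
    rfl
  rw [e1, e1] at hχ
  have c0 : χ 0 = t ^ 2 * s⁻¹ := by
    rw [hχ]
    show D4Torus.hchar 18 _ 0 * D4Torus.hchar 13 _ 0 * D4Torus.hchar 12 _ 0 * D4Torus.hchar 14 _ 0 = _
    rw [D4H1.hchar_18_0, D4H1.hchar_13_0, D4H1.hchar_12_0, D4H1.hchar_14_0, mul_one, mul_one]
  have c1 : χ 1 = t⁻¹ * t⁻¹ * t⁻¹ * s ^ 2 := by
    rw [hχ]
    show D4Torus.hchar 18 _ 1 * D4Torus.hchar 13 _ 1 * D4Torus.hchar 12 _ 1 * D4Torus.hchar 14 _ 1 = _
    rw [D4H1.hchar_18_1, D4H1.hchar_13_1, D4H1.hchar_12_1, D4H1.hchar_14_1]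
  rw [e, mem_FS] at hf
  obtain ⟨-, h2, -, -⟩ := D4Torus.tor_fix_iff_aux (RingHom.id K) (χ := χ) (hf _ hid)
  have key : ∀ φ ∈ S, φ (χ 0 : K) = χ 0 ∧ φ (χ 1 : K) = χ 1 := by
    intro φ hφ
    obtain ⟨a1, a2, -, -⟩ := D4Torus.tor_fix_iff_aux φ (χ := χ) (hf _ hφ)
    refine ⟨?_, a1.symm⟩
    rw [← a2, h2]
    rfl
  have et : (t : K) = (χ 0 : K) ^ 2 * (χ 1 : K) := by
    rw [c0, c1]
    have h0 := t.ne_zero
    have h1 := s.ne_zero
    push_cast
    field_simp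
  have es : (s : K) = (χ 0 : K) ^ 3 * (χ 1 : K) ^ 2 := by
    rw [c0, c1]
    have h0 := t.ne_zero
    have h1 := s.ne_zero
    push_cast
    field_simp
  constructor
  · rw [mem_kF]
    intro φ hφ
    rw [et, map_mul, map_pow, (key φ hφ).1, (key φ hφ).2]
  · rw [mem_kF]
    intro φ hφ
    rw [es, map_mul, map_pow, map_pow, (key φ hφ).1, (key φ hφ).2]

/-- fixed torus elements -/
theorem H_fixS (hid : RingHom.id K ∈ S) {h : GL chevD4.Idx K} (hh : h ∈ chevD4.diagonalSubgroup K) (hf : h ∈ FS S) :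
    h ∈ DS S := by
  obtain ⟨t, s, rfl⟩ := H_fix hh (mem_FS.1 hf _ hid)
  obtain ⟨h1, h2⟩ := hel_kF hid hf
  exact hel_DS h1 h2

theorem N_fixS (hid : RingHom.id K ∈ S) {n : GL chevD4.Idx K} (hn : n ∈ chevD4.monomialSubgroup K) (hf : n ∈ FS S) :
    n ∈ DS S := by
  have h1 : n ∈ D4Perm.NT K := D4Perm.mem_NT_of_comm (g := ⟨n, hn⟩) (D4TwN.comm_of_fix (RingHom.id K) (mem_FS.1 hf _ hid))
  have hc : Subgroup.closure {D4Perm.nA K, D4Perm.nB K} ≤ chevD4.monomialSubgroup K ⊓ DS S := by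
    rw [Subgroup.closure_le]
    rintro g (rfl | rfl)
    · exact ⟨D4Perm.nA_mem K, nA_DS⟩
    · exact ⟨D4Perm.nB_mem K, nB_DS⟩
  have h2 : Subgroup.closure {D4Perm.nA K, D4Perm.nB K} ≤
      Subgroup.normalizer (chevD4.diagonalSubgroup K : Set (GL chevD4.Idx K)) := by
    intro n hn
    have hn' : n ∈ chevD4.monomialSubgroup K := (hc hn).1
    rw [Subgroup.mem_normalizer_iff]
    intro h
    constructor
    · exact fun hh => conj_mem_diagonal hn' hh
    · intro hh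
      have := conj_mem_diagonal (inv_mem hn') hh
      have e : n⁻¹ * (n * h * n⁻¹) * n⁻¹⁻¹ = h := by group
      rwa [e] at this
  rw [D4Perm.NT_def] at h1
  have h3 : (n : GL chevD4.Idx K) ∈ ((Subgroup.closure {D4Perm.nA K, D4Perm.nB K} ⊔ chevD4.diagonalSubgroup K :
      Subgroup (GL chevD4.Idx K)) : Set (GL chevD4.Idx K)) := h1
  rw [Subgroup.coe_mul_of_left_le_normalizer_right _ _ h2] at h3
  obtain ⟨n, hnc, h, hh, rfl⟩ := h3
  have hn' : n ∈ DS S := (hc hnc).2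
  have hnf : n ∈ FS S := DS_le_FS _ hn'
  have hhf : h ∈ FS S := by
    have h4 := mul_mem (inv_mem hnf) hf
    have e : n⁻¹ * ((fun x1 x2 => x1 * x2) n h) = h := by
      show n⁻¹ * (n * h) = h
      group
    rwa [e] at h4
  exact mul_mem hn' (H_fixS hid hh hhf)

/-- **The fixed points are generated by the relative root groups.** -/
theorem CS_eq_DS (hid : RingHom.id K ∈ S) : CS S = DS S := by
  apply le_antisymm _ (DS_le_CS _)
  rintro g ⟨hg, hf⟩
  obtain ⟨u, hu, n, hn, v, hv, rfl⟩ := fix_form hg hf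
  exact mul_mem (mul_mem (U_le_DS _ hu) (N_fixS hid hn.1 hn.2)) (U_le_DS _ hv)

/-- **The fixed points are `G₂` of the fixed field.** -/
theorem equiv_DS (hid : RingHom.id K ∈ S) : Nonempty (↥(DS S) ≃* ↥(chevG2.group ↥(kF S))) :=
  equivG2 (K := K) (S := S) hid (by
    intro g hg h
    have hf : g ∈ fix (RingHom.id K) := DS_le_fix hid hg
    refine rho3_inj (DS_le_G _ hg) hf ?_
    apply Units.ext
    rw [coe_rho3]
    show J K * ((g : Matrix chevD4.Idx chevD4.Idx K) * I K) = 1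
    rw [h, J_mul_I])

end Cfsg.Agent.H164.TD
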